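import Cfsg.Agent.OD.Pre
import Cfsg.Agent.H6.Top2
import Cfsg.Agent.H6.J3A.C
set_option autoImplicit false
set_option maxRecDepth 100000
set_option Elab.async false
set_option linter.all false
namespace CfH6.J3A
open CfH6 MulAction
theorem e0_0 : EqsOk nets0 eqs0 8192 13 0 13 :=
  eqsOk_of _ _ _ _ 0 13 _ (by decide) (by decide +kernel)
theorem ok0 : okNets 8192 nets0 = true := by decide +kernel
theorem x1_0 : NxOk nets0 ws1 nets1 5 8192 13 8192 0 13 :=
  nxOk_of _ _ _ _ _ _ _ 0 13 _ (by decide) (by decide +kernel)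
theorem sx1 : sideNx ws1 nets1 13 8192 13 8192 = true := by decide +kernel
theorem x2_0 : NxOk nets1 ws2 nets2 1 8192 13 96 0 13 :=
  nxOk_of _ _ _ _ _ _ _ 0 13 _ (by decide) (by decide +kernel)
theorem sx2 : sideNx ws2 nets2 5 8192 13 96 = true := by decide +kernel
theorem oi1_0 : (Nat.blt 0 5 && Nat.beq (orbN nets1 5 30 (Nat.shiftLeft 1 96)) S1) = true := by decide +kernel
theorem ci1 : (Nat.beq (chkInv nets1 5 S1) 0 && S1.testBit 96) = true := by decide +kernel
theorem oi2_0 : (Nat.blt 0 5 && Nat.beq (orbN nets1 5 30 (Nat.shiftLeft 1 17)) S2) = true := by decide +kernel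
theorem ci2 : (Nat.beq (chkInv nets1 5 S2) 0 && S2.testBit 17) = true := by decide +kernel
theorem oi3_0 : (Nat.blt 0 5 && Nat.beq (orbN nets1 5 20 (Nat.shiftLeft 1 26)) S3) = true := by decide +kernel
theorem ci3 : (Nat.beq (chkInv nets1 5 S3) 0 && S3.testBit 26) = true := by decide +kernel
theorem oi4_0 : (Nat.blt 0 5 && Nat.beq (orbN nets1 5 25 (Nat.shiftLeft 1 34)) S4) = true := by decide +kernel
theorem ci4 : (Nat.beq (chkInv nets1 5 S4) 0 && S4.testBit 34) = true := by decide +kernel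
theorem oi5_0 : (Nat.blt 0 5 && Nat.beq (orbN nets1 5 15 (Nat.shiftLeft 1 3370)) S5) = true := by decide +kernel
theorem ci5 : (Nat.beq (chkInv nets1 5 S5) 0 && S5.testBit 3370) = true := by decide +kernel
theorem oi6_0 : (Nat.blt 0 5 && Nat.beq (orbN nets1 5 25 (Nat.shiftLeft 1 56)) S6) = true := by decide +kernel
theorem ci6 : (Nat.beq (chkInv nets1 5 S6) 0 && S6.testBit 56) = true := by decide +kernel
theorem oi7_0 : (Nat.blt 0 5 && Nat.beq (orbN nets1 5 25 (Nat.shiftLeft 1 76)) S7) = true := by decide +kernel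
theorem ci7 : (Nat.beq (chkInv nets1 5 S7) 0 && S7.testBit 76) = true := by decide +kernel
theorem cm7 : chkMx 8192 nets0 13 ws1 5 6156 w7 76 J7 lBig = true := by decide +kernel
theorem cm6 : chkMx 8192 nets0 13 ws1 5 6156 w6 56 J6 lBig = true := by decide +kernel
theorem cm5 : chkMx 8192 nets0 13 ws1 5 6156 w5 3370 J5 lBig = true := by decide +kernel
theorem cm4 : chkMx 8192 nets0 13 ws1 5 6156 w4 34 J4 lBig = true := by decide +kernel
theorem cm3 : chkMx 8192 nets0 13 ws1 5 6156 w3 26 J3 lBig = true := by decide +kernel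
theorem cm2 : chkMx 8192 nets0 13 ws1 5 6156 w2 17 J2 lBig = true := by decide +kernel
theorem cm1 : chkMx 8192 nets0 13 ws1 5 6156 w1 96 J1 lBig = true := by decide +kernel
theorem og2 : Nat.ble 4 (popc 7 (orbN nets2 1 3 (Nat.shiftLeft 1 22))) = true := by decide +kernel
theorem pw0 : (allLt 13 (wpow [3, 8, 12] (19 ^ 1)) && bs'.all fun b => Nat.blt b 8192 && Nat.beq (chkMap nets0 (wpow [3, 8, 12] (19 ^ 1)) b b) 0) = true := by decide +kernel
end CfH6.J3A
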